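import Mathlib
import Cfsg.Agent.Lib.Helper50.FOT.Defs
import Cfsg.Agent.S0547

/-!
# FOT (S3999), package [SYL6]

A finite solvable group never has exactly six Sylow 5-subgroups.  Route: the image of `H` in
`Perm (Sylow 5 H)` would be a solvable, faithful, 2-transitive (hence primitive) group of
degree 6, contradicting the landed S0547 (degree of a solvable primitive group is a prime power).
-/

set_option autoImplicit false

namespace Cfsg.Agent.Lib.Helper73.FOT

open Cfsg.Agent.Lib.Helper50.FOT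

universe u

/-- A Sylow subgroup `Q` fixes (by conjugation) no Sylow subgroup other than itself. -/
theorem sylow_fixed_h73 {H : Type u} [Group H] {p : ℕ} [Fact p.Prime] (Q R : Sylow p H)
    (h : ∀ g ∈ (Q : Subgroup H), g • R = R) : R = Q := by
  have h2 := Q.2.inf_normalizer_sylow R
  have h3 : (Q : Subgroup H) ≤ R := by
    have h4 : (Q : Subgroup H) ≤ (Q : Subgroup H) ⊓ R := by
      rw [← h2]
      exact le_inf le_rfl (fun g hg => Sylow.smul_eq_iff_mem_normalizer.mp (h g hg))
    exact h4.trans inf_le_right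
  exact Sylow.ext (Q.is_maximal' R.isPGroup' h3)

/-- [SYL6] -/
theorem pkgSyl6 : PkgSyl6.{u} := by
  intro H _ _ hsol h6
  classical
  have : Fact (Nat.Prime 5) := ⟨by norm_num⟩
  -- a Sylow subgroup `Q` is transitive on the other five
  have key : ∀ (Q x y : Sylow 5 H), x ≠ Q → y ≠ Q → ∃ g ∈ (Q : Subgroup H), g • x = y := by
    intro Q x y hx hy
    obtain ⟨n, hn⟩ := Q.2.card_orbit x
    have hxO : x ∈ MulAction.orbit (Q : Subgroup H) x := MulAction.mem_orbit_self x
    have hn0 : n ≠ 0 := by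
      rintro rfl
      rw [pow_zero, Nat.card_eq_one_iff_unique] at hn
      obtain ⟨hsub, -⟩ := hn
      apply hx
      apply sylow_fixed_h73 Q x
      intro g hg
      have hgO : (⟨g, hg⟩ : (Q : Subgroup H)) • x ∈ MulAction.orbit (Q : Subgroup H) x :=
        MulAction.mem_orbit x _
      have := Subtype.ext_iff.mp (hsub.elim ⟨_, hgO⟩ ⟨_, hxO⟩)
      exact this
    have hQO : Q ∉ MulAction.orbit (Q : Subgroup H) x := by
      rintro ⟨g, hg⟩
      apply hx
      have h1 : (g : H) • x = Q := hg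
      have h2 : (g : H) • Q = Q :=
        Sylow.smul_eq_iff_mem_normalizer.mpr (Subgroup.le_normalizer g.2)
      exact smul_left_cancel (g : H) (h1.trans h2.symm)
    by_contra hy'
    have hyO : y ∉ MulAction.orbit (Q : Subgroup H) x := by
      rintro ⟨g, hg⟩
      exact hy' ⟨g.1, g.2, hg⟩
    have hfin : (MulAction.orbit (Q : Subgroup H) x).Finite := Set.toFinite _
    have c1 : (insert y (MulAction.orbit (Q : Subgroup H) x)).ncard =
        (MulAction.orbit (Q : Subgroup H) x).ncard + 1 := Set.ncard_insert_of_notMem hyO hfin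
    have hQ' : Q ∉ insert y (MulAction.orbit (Q : Subgroup H) x) := by
      rintro (h | h)
      · exact hy h.symm
      · exact hQO h
    have c2 : (insert Q (insert y (MulAction.orbit (Q : Subgroup H) x))).ncard =
        (insert y (MulAction.orbit (Q : Subgroup H) x)).ncard + 1 :=
      Set.ncard_insert_of_notMem hQ' (Set.toFinite _)
    have c3 : (insert Q (insert y (MulAction.orbit (Q : Subgroup H) x))).ncard ≤
        Nat.card (Sylow 5 H) := Set.ncard_le_card _
    have c4 : (MulAction.orbit (Q : Subgroup H) x).ncard = 5 ^ n := by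
      rw [← hn, Nat.card_coe_set_eq]
    have c5 : 5 ≤ 5 ^ n := by
      calc 5 = 5 ^ 1 := by norm_num
        _ ≤ 5 ^ n := Nat.pow_le_pow_right (by norm_num) (Nat.one_le_iff_ne_zero.mpr hn0)
    omega
  -- the image group
  let ρ : H →* Equiv.Perm (Sylow 5 H) := MulAction.toPermHom H (Sylow 5 H)
  let G₀ : Subgroup (Equiv.Perm (Sylow 5 H)) := ρ.range
  have : Group.IsSolvable G₀ :=
    Group.isSolvable_of_surjective (f := ρ.rangeRestrict) ρ.rangeRestrict_surjective
  have h2 : MulAction.IsMultiplyPretransitive G₀ (Sylow 5 H) 2 := by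
    rw [MulAction.is_two_pretransitive_iff]
    intro a b c d hab hcd
    obtain ⟨g₁, hg₁⟩ := MulAction.exists_smul_eq H a c
    have hb : g₁ • b ≠ c := by
      rw [← hg₁]
      exact fun h => hab (smul_left_cancel g₁ h).symm
    obtain ⟨g₂, hg₂Q, hg₂⟩ := key c (g₁ • b) d hb (Ne.symm hcd)
    refine ⟨⟨ρ (g₂ * g₁), ⟨g₂ * g₁, rfl⟩⟩, ?_, ?_⟩
    · show (g₂ * g₁) • a = c
      rw [mul_smul, hg₁]
      exact Sylow.smul_eq_iff_mem_normalizer.mpr (Subgroup.le_normalizer hg₂Q)
    · show (g₂ * g₁) • b = d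
      rw [mul_smul, hg₂]
  have hprim : MulAction.IsPreprimitive G₀ (Sylow 5 H) :=
    MulAction.isPreprimitive_of_is_two_pretransitive h2
  -- `G₀` is nontrivial
  have hne : (⊤ : Subgroup G₀) ≠ ⊥ := by
    intro htop
    have hone : ∀ g : G₀, g = 1 := fun g => by
      have : g ∈ (⊤ : Subgroup G₀) := Subgroup.mem_top g
      rw [htop] at this
      exact Subgroup.mem_bot.mp this
    have hcard : 1 < Nat.card (Sylow 5 H) := by omega
    obtain ⟨a, b, hab⟩ := (Finite.one_lt_card_iff_nontrivial.mp hcard).exists_pair_ne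
    rw [MulAction.is_two_pretransitive_iff] at h2
    obtain ⟨g, hg, -⟩ := h2 hab (Ne.symm hab)
    rw [hone g, one_smul] at hg
    exact hab hg
  -- a minimal normal subgroup
  obtain ⟨M, ⟨hMn, hMne⟩, hMmin⟩ := wellFounded_lt.has_min
    {K : Subgroup G₀ | K.Normal ∧ K ≠ ⊥} ⟨⊤, inferInstance, hne⟩
  have : M.Normal := hMn
  have hmin : ∀ K : Subgroup G₀, K.Normal → K ≤ M → K = ⊥ ∨ K = M := by
    intro K hKn hKM
    by_cases hK : K = ⊥
    · exact Or.inl hK
    · exact Or.inr (eq_of_le_of_not_lt hKM (hMmin K ⟨hKn, hK⟩))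
  obtain ⟨-, -, p, d, hp, hd, hΩ, -⟩ := Cfsg.Agent.S0547.result hprim M hMne hmin
  rw [h6] at hΩ
  have e2 : p = 2 := by
    have : 2 ∣ p ^ d := by rw [← hΩ]; norm_num
    exact ((Nat.prime_dvd_prime_iff_eq Nat.prime_two hp).mp
      (Nat.prime_two.dvd_of_dvd_pow this)).symm
  have e3 : p = 3 := by
    have : 3 ∣ p ^ d := by rw [← hΩ]; norm_num
    exact ((Nat.prime_dvd_prime_iff_eq Nat.prime_three hp).mp
      (Nat.prime_three.dvd_of_dvd_pow this)).symm
  omega

end Cfsg.Agent.Lib.Helper73.FOT
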